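import Mathlib
import Cfsg.Prelude.Def_Local
import Cfsg.Prelude.Def_OddOrderLocal
import Cfsg.Agent.Lib.Helper33.Alperin
import Cfsg.Agent.Lib.Helper49.PPrimeP
import Cfsg.Agent.Lib.Helper49.CharP
import Cfsg.Agent.Lib.Helper64.BG.Fusion
import Cfsg.Agent.Lib.Helper22.PComp

/-!
# Fusion control by a subgroup containing the normalizers of the overgroups of an abelian
normal subgroup of a Sylow subgroup (helper22, used for Bender–Glauberman Lemma 9.5)

Let `P` be a Sylow `p`-subgroup of `G`, `A` an abelian normal subgroup of `P` and `M` a subgroup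
containing `N_G(T)` for every `T` with `A ≤ T ≤ P`.  If every `p`-local subgroup `N_G(U)`
(`1 ≠ U ≤ P`) has the Hall–Higman property "abelian normal subgroups of a Sylow `p`-subgroup lie
in `O_{p',p}`", then `g⁻¹ T g ≤ P` with `T ≤ P` forces `g ∈ C_G(T) M`; consequently
`P ∩ G' ≤ M'`.
-/

set_option autoImplicit false

namespace Cfsg.Agent.Lib.Helper22.BG

open Cfsg Cfsg.Agent.Lib.Helper33

/-- A normal `p`-subgroup lies in `O_{p',p}`. -/
theorem normal_pGroup_le_pPrimePCore {X : Type*} [Group X] {p : ℕ}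
    (U : Subgroup X) (hUn : U.Normal) (hUp : IsPGroup p U) : U ≤ Cfsg.pPrimePCore p X := by
  have hOn : (Cfsg.pPrimeCore p X).Normal := Cfsg.Agent.Lib.Helper22.pPrimeCore_normal' p X
  intro u hu
  show (QuotientGroup.mk' (Cfsg.pPrimeCore p X)) u ∈ Cfsg.pCore p (X ⧸ Cfsg.pPrimeCore p X)
  have h1 : (U.map (QuotientGroup.mk' (Cfsg.pPrimeCore p X))).Normal :=
    hUn.map _ (QuotientGroup.mk'_surjective _)
  have h2 : IsPGroup p (U.map (QuotientGroup.mk' (Cfsg.pPrimeCore p X))) := hUp.map _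
  exact Cfsg.Agent.Lib.Helper49.le_pCore h1 h2 ⟨u, hu, rfl⟩

/-- The local step: in a finite group `X` with Sylow `p`-subgroup `S` and normal `p`-subgroup
`U`, with `R = S ∩ O_{p',p}(X)`: `U ≤ R`, `O_{p'}(X)` centralizes `U`, and
`X = O_{p'}(X) N_X(R)`. -/
theorem fc_local {X : Type*} [Group X] [Finite X] {p : ℕ} [Fact p.Prime]
    (S : Sylow p X) (U : Subgroup X) (hUn : U.Normal) (hUp : IsPGroup p U) :
    U ≤ (S : Subgroup X) ⊓ Cfsg.pPrimePCore p X ∧
    (∀ o ∈ Cfsg.pPrimeCore p X, ∀ u ∈ U, o * u = u * o) ∧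
    ∀ x : X, ∃ o ∈ Cfsg.pPrimeCore p X,
      ∃ n ∈ Subgroup.normalizer
        ((((S : Subgroup X) ⊓ Cfsg.pPrimePCore p X : Subgroup X)) : Set X), x = o * n := by
  have hOn : (Cfsg.pPrimeCore p X).Normal := Cfsg.Agent.Lib.Helper22.pPrimeCore_normal' p X
  refine ⟨le_inf ?_ (normal_pGroup_le_pPrimePCore U hUn hUp), ?_, ?_⟩
  · exact (Cfsg.Agent.Lib.Helper49.le_pCore hUn hUp).trans
      (Cfsg.Agent.Lib.Helper23.pCore_le_sylow' p S)
  · exact Cfsg.Agent.Lib.Helper64.BG.comm_of_normal_coprime _ U hOn hUn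
      (Cfsg.Agent.Lib.Helper22.card_pPrimeCore_coprime p X) hUp
  · intro x
    have h1 := Cfsg.Agent.Lib.Helper49.normalizer_inf_pPrimePCore_sup S
    have h2 : x ∈ Cfsg.pPrimeCore p X ⊔ Subgroup.normalizer
        ((((S : Subgroup X) ⊓ Cfsg.pPrimePCore p X : Subgroup X)) : Set X) := by
      rw [sup_comm, h1]; exact Subgroup.mem_top x
    rw [← SetLike.mem_coe, Subgroup.normal_mul] at h2
    obtain ⟨o, ho, n, hn, rfl⟩ := Set.mem_mul.1 h2
    exact ⟨o, ho, n, hn, rfl⟩

/-- Normalizer growth: if `A` is normalized by `U`, `A ⊔ U` is a `p`-group and `N_A(U) ≤ U`,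
then `A ≤ U`. -/
theorem le_of_inf_normalizer_le {G : Type*} [Group G] [Finite G] {p : ℕ} [Fact p.Prime]
    (A U Q : Subgroup G) (hQ : IsPGroup p Q) (hAQ : A ≤ Q) (hUQ : U ≤ Q)
    (hUA : U ≤ Subgroup.normalizer (A : Set G))
    (h : A ⊓ Subgroup.normalizer (U : Set G) ≤ U) : A ≤ U := by
  by_contra hAU
  have hne : U ≠ A ⊔ U := fun e => hAU (by rw [e]; exact le_sup_left)
  have hp : IsPGroup p (A ⊔ U : Subgroup G) := hQ.to_le (sup_le hAQ hUQ)
  obtain ⟨x, hx, hxU⟩ := exists_mem_normalizer_not_mem hp (le_sup_right : U ≤ A ⊔ U) hne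
  have hx1 : x ∈ (A ⊔ U : Subgroup G) := hx.1
  rw [← SetLike.mem_coe, Subgroup.coe_mul_of_right_le_normalizer_left A U hUA] at hx1
  obtain ⟨a, ha, u, hu, rfl⟩ := Set.mem_mul.1 hx1
  have ha' : a ∈ Subgroup.normalizer (U : Set G) := by
    have h1 : a * u * u⁻¹ ∈ Subgroup.normalizer (U : Set G) :=
      mul_mem hx.2 (inv_mem (Subgroup.le_normalizer hu))
    simpa using h1
  exact hxU (mul_mem (h ⟨ha, ha'⟩) hu)

/-- **Fusion control.** -/
theorem fusion_ctl {G : Type*} [Group G] [Finite G] {p : ℕ} [Fact p.Prime]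
    (P : Sylow p G) (A M : Subgroup G)
    (hAP : A ≤ (P : Subgroup G)) (hAn : (P : Subgroup G) ≤ Subgroup.normalizer (A : Set G))
    (hAc : IsMulCommutative A)
    (hM : ∀ T : Subgroup G, A ≤ T → T ≤ (P : Subgroup G) →
      Subgroup.normalizer (T : Set G) ≤ M)
    (hloc : ∀ U : Subgroup G, U ≤ (P : Subgroup G) → U ≠ ⊥ →
        ∀ (S : Sylow p (Subgroup.normalizer (U : Set G)))
          (B : Subgroup (Subgroup.normalizer (U : Set G))),
          B ≤ (S : Subgroup (Subgroup.normalizer (U : Set G))) → IsMulCommutative B →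
          (S : Subgroup (Subgroup.normalizer (U : Set G))) ≤
            Subgroup.normalizer (B : Set (Subgroup.normalizer (U : Set G))) →
          B ≤ Cfsg.pPrimePCore p (Subgroup.normalizer (U : Set G))) :
    ∀ T : Subgroup G, T ≤ (P : Subgroup G) → ∀ g : G, cj g⁻¹ T ≤ (P : Subgroup G) →
      ∃ c ∈ Subgroup.centralizer (T : Set G), ∃ m ∈ M, g = c * m := by
  refine alperin_induction (sylIn_top P)
    (fun T g => ∃ c ∈ Subgroup.centralizer (T : Set G), ∃ m ∈ M, g = c * m) ?_ ?_ ?_ ?_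
  · -- composition
    rintro T g h ⟨c, hc, m, hm, rfl⟩ ⟨c', hc', m', hm', rfl⟩
    have h1 : (c * m) * c' * (c * m)⁻¹ ∈ Subgroup.centralizer (T : Set G) := by
      have h2 := conj_mem_cj (g := c * m) hc'
      rw [cj_centralizer, cj_cj_inv] at h2
      exact h2
    refine ⟨(c * m) * c' * (c * m)⁻¹ * c, mul_mem h1 hc, m * m', mul_mem hm hm', ?_⟩
    group
  · -- restriction
    rintro T T' g hle ⟨c, hc, m, hm, rfl⟩
    exact ⟨c, Subgroup.centralizer_le (by exact_mod_cast hle) hc, m, hm, rfl⟩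
  · -- inversion
    rintro T g ⟨c, hc, m, hm, rfl⟩
    have h1 : (c * m)⁻¹ * c⁻¹ * (c * m)⁻¹⁻¹ ∈
        Subgroup.centralizer ((cj (c * m)⁻¹ T : Subgroup G) : Set G) := by
      have h2 := conj_mem_cj (g := (c * m)⁻¹) (inv_mem hc)
      rw [cj_centralizer] at h2
      exact h2
    refine ⟨_, h1, m⁻¹, inv_mem hm, ?_⟩
    group
  · -- the local step
    intro U hUP hsyl IH x hx
    by_cases hU : U = ⊥
    · refine ⟨x, ?_, 1, one_mem _, by simp⟩
      rw [hU]
      rw [Subgroup.mem_centralizer_iff]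
      intro y hy
      have : y = 1 := by simpa using hy
      rw [this]; simp
    set N := Subgroup.normalizer (U : Set G) with hN
    have hS0p : IsPGroup p (((P : Subgroup G) ⊓ N).subgroupOf N) := hsyl.2.1.comap_subtype
    have hidx : ¬ p ∣ (((P : Subgroup G) ⊓ N).subgroupOf N).index := hsyl.2.2
    let S0 : Sylow p N := hS0p.toSylow hidx
    have hS0 : (S0 : Subgroup N) = ((P : Subgroup G) ⊓ N).subgroupOf N := rfl
    have hU0n : (U.subgroupOf N).Normal := Subgroup.normal_in_normalizer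
    have hUp : IsPGroup p U := P.2.to_le hUP
    have hU0p : IsPGroup p (U.subgroupOf N) := hUp.comap_subtype
    -- the abelian normal subgroup `N_A(U)` of `S0`
    have hB1 : (A ⊓ N).subgroupOf N ≤ (S0 : Subgroup N) := by
      rw [hS0]
      intro y hy
      exact ⟨hAP hy.1, hy.2⟩
    have hB2 : IsMulCommutative ((A ⊓ N).subgroupOf N) := by
      refine ⟨⟨fun a b => ?_⟩⟩
      have ha : (a : N).1 ∈ A := a.2.1
      have hb : (b : N).1 ∈ A := b.2.1
      have h1 := hAc.is_comm.comm (⟨_, ha⟩ : A) ⟨_, hb⟩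
      have h2 : (a : N).1 * (b : N).1 = (b : N).1 * (a : N).1 := by
        have h3 := congrArg Subtype.val h1
        simpa using h3
      exact Subtype.ext (Subtype.ext h2)
    have hB3 : (S0 : Subgroup N) ≤ Subgroup.normalizer (((A ⊓ N).subgroupOf N : Subgroup N) : Set N) := by
      rw [hS0]
      intro s hs
      rw [Subgroup.mem_normalizer_iff]
      intro y
      have hsA : (s : G) ∈ Subgroup.normalizer (A : Set G) := hAn hs.1
      constructor
      · intro hy
        refine ⟨?_, (s * y * s⁻¹).2⟩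
        exact (Subgroup.mem_normalizer_iff.1 hsA _).1 hy.1
      · intro hy
        refine ⟨?_, y.2⟩
        exact (Subgroup.mem_normalizer_iff.1 hsA _).2 hy.1
    have hB := hloc U hUP hU S0 _ hB1 hB2 hB3
    obtain ⟨hUR, hcomm, hfac⟩ := fc_local S0 (U.subgroupOf N) hU0n hU0p
    set R0 : Subgroup N := (S0 : Subgroup N) ⊓ Cfsg.pPrimePCore p N with hR0
    set R : Subgroup G := R0.map N.subtype with hR
    have hRP : R ≤ (P : Subgroup G) := by
      rintro _ ⟨r, hr, rfl⟩
      exact (hr.1 : (r : G) ∈ (P : Subgroup G) ⊓ N).1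
    have hURG : U ≤ R := by
      intro u hu
      have huN : u ∈ N := Subgroup.le_normalizer hu
      exact ⟨⟨u, huN⟩, hUR (show (⟨u, huN⟩ : N) ∈ U.subgroupOf N from hu), rfl⟩
    obtain ⟨o, ho, n, hn, hxon⟩ := hfac ⟨x, hx⟩
    have hoC : (o : G) ∈ Subgroup.centralizer (U : Set G) := by
      rw [Subgroup.mem_centralizer_iff]
      intro u hu
      have huN : u ∈ N := Subgroup.le_normalizer hu
      have h1 := hcomm o ho ⟨u, huN⟩ hu
      have h2 : (o : G) * u = u * (o : G) := congrArg Subtype.val h1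
      exact h2.symm
    have hxon' : x = (o : G) * (n : G) := congrArg Subtype.val hxon
    by_cases hRU : R ≤ U
    · -- then `N_A(U) ≤ U`, so `A ≤ U` and `N_G(U) ≤ M`
      have h1 : A ⊓ N ≤ U := by
        intro y hy
        have hyN : y ∈ N := hy.2
        have h2 : (⟨y, hyN⟩ : N) ∈ R0 := ⟨hB1 hy, hB hy⟩
        exact hRU ⟨⟨y, hyN⟩, h2, rfl⟩
      have hAU : A ≤ U :=
        le_of_inf_normalizer_le A U (P : Subgroup G) P.2 hAP hUP (hUP.trans hAn) h1
      exact ⟨1, one_mem _, x, hM U hAU hUP hx, by simp⟩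
    · -- otherwise `U < R` and induction applies to `R`
      have hlt : Nat.card U < Nat.card R :=
        card_lt_of_lt (lt_of_le_not_ge hURG hRU)
      have hnR : cj (n : G)⁻¹ R ≤ R := by
        intro y hy
        rw [mem_cj] at hy
        obtain ⟨r, hr, hry⟩ := hy
        have h3 : n⁻¹ ∈ Subgroup.normalizer ((R0 : Subgroup N) : Set N) := inv_mem hn
        have h4 := (Subgroup.mem_normalizer_iff.1 h3 r).1 hr
        refine ⟨n⁻¹ * r * n⁻¹⁻¹, h4, ?_⟩
        have h5 : (N.subtype r : G) = (n : G)⁻¹⁻¹ * y * (n : G)⁻¹ := hry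
        simp only [Subgroup.coe_subtype, Subgroup.coe_mul, InvMemClass.coe_inv] at h5 ⊢
        rw [h5]; group
      obtain ⟨c, hc, m, hm, hncm⟩ := IH R hRP hlt (n : G) (hnR.trans hRP)
      refine ⟨(o : G) * c, mul_mem hoC (Subgroup.centralizer_le (by exact_mod_cast hURG) hc),
        m, hm, ?_⟩
      rw [hxon', hncm]; group

end Cfsg.Agent.Lib.Helper22.BG
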